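import Mathlib
import Cfsg.Agent.Lib.Helper28.MinSU.S1c
import Cfsg.Agent.Lib.Helper83.MinSU.DefsO
import Cfsg.Agent.Lib.Helper1.MinSU.oPEI

set_option autoImplicit false

namespace Cfsg.Agent.Lib.Helper37.MinSU.O

open Matrix Module Cfsg.Agent.Lib.Helper13 Cfsg.Agent.Lib.Helper5 Cfsg.Agent.Lib.Helper57.RootSU
  Cfsg.Agent.Lib.Helper83.MinSU Cfsg.Agent.Lib.Helper94 Cfsg.Agent.Lib.Helper94.U
  Cfsg.Agent.Lib.Helper28.MinSU

/-- private copy of [oNUM] -/
theorem s1_NO_mul {q n : ℕ} (ho : Odd n) :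
    NO q n * (q ^ 2 - 1) = (q ^ n + 1) * (q ^ (n - 1) - 1) := by
  unfold NO
  apply Nat.div_mul_cancel
  obtain ⟨k, rfl⟩ := ho
  have h1 : q ^ 2 - 1 ∣ q ^ (2 * k + 1 - 1) - 1 := by
    rw [Nat.add_sub_cancel, pow_mul]
    have := Nat.sub_dvd_pow_sub_pow (q ^ 2) 1 k
    rwa [one_pow] at this
  exact Dvd.dvd.mul_left h1 _

/-- `NO q n * (q + 1) ≤ q ^ (2 n - 1)` -/
theorem s1_NO_le {q n : ℕ} (hq : 2 ≤ q) (hn : 1 ≤ n) (ho : Odd n) :
    NO q n * (q + 1) ≤ q ^ (2 * n - 1) := by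
  have h := s1_NO_mul (q := q) ho
  have e : q ^ 2 - 1 = (q - 1) * (q + 1) := by
    obtain ⟨t, rfl⟩ : ∃ t, q = t + 1 := ⟨q - 1, by omega⟩
    have : (t + 1) ^ 2 = t * (t + 1 + 1) + 1 := by ring
    rw [this]; simp
  obtain ⟨x, hx⟩ : ∃ x, x = q ^ (n - 1) := ⟨_, rfl⟩
  have hx1 : 1 ≤ x := by rw [hx]; exact Nat.one_le_pow _ _ (by omega)
  have e2 : q ^ n = q * x := by
    rw [hx, ← pow_succ']; congr 1; omega
  have e3 : q ^ (2 * n - 1) = q * x * x := by
    rw [hx, mul_assoc, ← pow_add, ← pow_succ']; congr 1; omega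
  rw [e3]
  calc NO q n * (q + 1) ≤ NO q n * ((q - 1) * (q + 1)) := by
        apply Nat.mul_le_mul le_rfl
        exact Nat.le_mul_of_pos_left _ (by omega)
    _ = (q * x + 1) * (x - 1) := by rw [← e, h, e2, hx]
    _ ≤ q * x * x := by
        obtain ⟨y, rfl⟩ : ∃ y, x = y + 1 := ⟨x - 1, by omega⟩
        rw [Nat.add_sub_cancel]
        nlinarith [Nat.zero_le (q * y), Nat.zero_le y]

theorem s1c_exp_o (k l : ℕ) (hk : 2 ≤ k) (hl : 1 ≤ l) :
    4 * k + 2 * l ≤ k ^ 2 + 2 * (k * l) + 2 := by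
  obtain ⟨k', rfl⟩ : ∃ k', k = k' + 2 := ⟨k - 2, by omega⟩
  obtain ⟨l', rfl⟩ : ∃ l', l = l' + 1 := ⟨l - 1, by omega⟩
  nlinarith [Nat.zero_le (k' * l'), Nat.zero_le (k' * k')]

variable {F : Type*} [Field F] [Fintype F] {q m n : ℕ}

/-- [oS1c] -/
theorem index_stab_ti (hF : Fintype.card F = q ^ 2) (hn : 5 ≤ n) (ho : Odd n)
    (R : Submodule F (Fin n → F)) (hR0 : R ≠ ⊥)
    (hR : ∀ u ∈ R, ∀ v ∈ R, Cfsg.hermForm n F q u v = 0)
    (K : Subgroup (Cfsg.SU n F q)) (hK : ∀ k ∈ K, ∀ x ∈ R, k.1.1 *ᵥ x ∈ R) :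
    NO q n ≤ K.index := by
  have hq := two_le_of_card_sq hF
  refine le_trans ?_ (index_St_le R K hK)
  have h2k := two_mul_finrank_le_of_ti hF R hR
  have hkpos : 0 < finrank F R := by
    rw [Module.finrank_pos_iff, Submodule.nontrivial_iff_ne_bot]
    exact hR0
  by_cases hk1 : finrank F R = 1
  · obtain ⟨e, heR, he0⟩ := Submodule.exists_mem_ne_zero_of_ne_bot hR0
    have hspan : Submodule.span F {e} = R := by
      apply Submodule.eq_of_le_of_finrank_eq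
      · rw [Submodule.span_singleton_le_iff_mem]; exact heR
      · rw [finrank_span_singleton he0, hk1]
    have := Cfsg.Agent.Lib.Helper1.MinSU.O.index_Pe hF (by omega) ho e he0 (hR e heR e heR)
    rw [← this, ← hspan]
    exact le_rfl
  · have h1 := index_St_mul hF (by omega) R
    rw [card_su_parabolic hF (finrank F R) (by omega) h2k R rfl hR] at h1
    generalize finrank F R = k at *
    obtain ⟨l, rfl⟩ : ∃ l, n = 2 * k + l := ⟨n - 2 * k, by omega⟩
    have hl : 1 ≤ l := by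
      rcases Nat.eq_zero_or_pos l with rfl | h
      · exfalso
        rw [add_zero] at ho
        exact (Nat.not_odd_iff_even.2 (even_two_mul k)) ho
      · exact h
    have e1 : 2 * k + l - 2 * k = l := by omega
    rw [e1, ← card_GU hF l] at h1
    have hG : ∏ i : Fin k, ((q ^ 2) ^ k - (q ^ 2) ^ (i : ℕ)) ≤ q ^ (2 * k ^ 2) := by
      calc ∏ i : Fin k, ((q ^ 2) ^ k - (q ^ 2) ^ (i : ℕ)) ≤ ((q ^ 2) ^ k) ^ (Finset.univ : Finset (Fin k)).card :=
            Finset.prod_le_pow_card _ _ _ (fun i _ => Nat.sub_le _ _)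
        _ = q ^ (2 * k ^ 2) := by
            rw [Finset.card_univ, Fintype.card_fin, ← pow_mul, ← pow_mul]; congr 1; ring
    have hb := s1c_arith q k l _ _ _ _ (by omega) h1 (card_GU_bounds hF _).1 hG
      (card_GU_bounds hF l).2
    have hexp := s1c_exp_o k l (by omega) hl
    have hNO := s1_NO_le (q := q) (n := 2 * k + l) hq (by omega) ho
    have hpos : 0 < q + 1 := by omega
    apply Nat.le_of_mul_le_mul_right _ hpos
    refine hNO.trans (le_trans ?_ hb)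
    apply Nat.pow_le_pow_right (by omega)
    omega

end Cfsg.Agent.Lib.Helper37.MinSU.O
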