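import Mathlib
import Cfsg.Agent.Lib.Helper28.MinSU.S1d
import Cfsg.Agent.Lib.Helper83.MinSU.DefsO
import Cfsg.Agent.Lib.Helper37.MinSU.oS1c

set_option autoImplicit false

namespace Cfsg.Agent.Lib.Helper37.MinSU.O

open Matrix Module Cfsg.Agent.Lib.Helper13 Cfsg.Agent.Lib.Helper5 Cfsg.Agent.Lib.Helper57.RootSU
  Cfsg.Agent.Lib.Helper83.MinSU Cfsg.Agent.Lib.Helper94 Cfsg.Agent.Lib.Helper94.U
  Cfsg.Agent.Lib.Helper28.MinSU

theorem s1d_n_le_o (q m : ℕ) (hq : 2 ≤ q) : m + 7 ≤ q ^ (m + 3) := by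
  have h3 : m + 7 ≤ 2 ^ (m + 3) := by
    induction m with
    | zero => norm_num
    | succ m ih =>
      have : 2 ^ (m + 1 + 3) = 2 * 2 ^ (m + 3) := by ring
      omega
  exact h3.trans (Nat.pow_le_pow_left hq _)

theorem s1d_aux0 (j l : ℕ) (hj : 2 ≤ j) (hl : 2 ≤ l) : 2 * (j + l) ≤ j * l + 4 := by
  obtain ⟨j', rfl⟩ : ∃ j', j = j' + 2 := ⟨j - 2, by omega⟩
  obtain ⟨l', rfl⟩ : ∃ l', l = l' + 2 := ⟨l - 2, by omega⟩
  nlinarith [Nat.zero_le (j' * l')]

theorem s1d_half_succ (k : ℕ) : (k + 1) * (k + 1 - 1) / 2 = k * (k - 1) / 2 + k := by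
  obtain ⟨t, ht⟩ := Nat.even_mul_pred_self k
  have e : (k + 1) * (k + 1 - 1) = k * (k - 1) + 2 * k := by
    cases k with
    | zero => rfl
    | succ s =>
      have a1 : s + 1 + 1 - 1 = s + 1 := by omega
      have a2 : s + 1 - 1 = s := by omega
      rw [a1, a2]
      ring
  rw [e, ht]
  omega

/-- `NO (q+1)^2 ≤ q^(2n+1)` -/
theorem s1d_NO_sq {q n : ℕ} (hq : 2 ≤ q) (hn : 1 ≤ n) (ho : Odd n) :
    NO q n * (q + 1) ^ 2 ≤ q ^ (2 * n + 1) := by
  have h := s1_NO_le (q := q) (n := n) hq hn ho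
  have h2 : q + 1 ≤ q ^ 2 := by nlinarith
  calc NO q n * (q + 1) ^ 2 = (NO q n * (q + 1)) * (q + 1) := by ring
    _ ≤ q ^ (2 * n - 1) * q ^ 2 := Nat.mul_le_mul h h2
    _ = q ^ (2 * n + 1) := by rw [← pow_add]; congr 1; omega

variable {F : Type*} [Field F] [Fintype F] {q m n : ℕ}

theorem s1d_card_GU_succ (hF : Fintype.card F = q ^ 2) (k : ℕ) (hk : Even k) :
    Nat.card (Cfsg.GU (k + 1) F q) = Nat.card (Cfsg.GU k F q) * (q ^ k * (q ^ (k + 1) + 1)) := by
  rw [card_GU hF (k + 1), card_GU hF k, s1d_half_succ, Finset.prod_range_succ, if_pos hk, pow_add]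
  ring

theorem s1d_card_GU_one (hF : Fintype.card F = q ^ 2) : Nat.card (Cfsg.GU 1 F q) = q + 1 := by
  rw [card_GU hF 1]
  simp

/-- the exact case: a nondegenerate point or hyperplane -/
theorem s1d_exact (hF : Fintype.card F = q ^ 2) (k I : ℕ) (hk : Even k) (hk1 : 1 ≤ k)
    (h : I * (Nat.card (Cfsg.GU 1 F q) * Nat.card (Cfsg.GU k F q)) =
      Nat.card (Cfsg.GU (k + 1) F q)) : NO q (k + 1) ≤ I := by
  have hq := two_le_of_card_sq hF
  have hfin : Finite (Cfsg.GU k F q) := Subtype.finite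
  have hpos : 0 < Nat.card (Cfsg.GU k F q) := Nat.card_pos
  rw [s1d_card_GU_succ hF k hk, s1d_card_GU_one hF] at h
  have h1 : I * (q + 1) = q ^ k * (q ^ (k + 1) + 1) := by
    apply Nat.eq_of_mul_eq_mul_right hpos
    rw [← mul_assoc] at h
    rw [h]; ring
  have hN := s1_NO_mul (q := q) (n := k + 1) hk.add_one
  rw [Nat.add_sub_cancel] at hN
  have e : q ^ 2 - 1 = (q - 1) * (q + 1) := by
    obtain ⟨t, rfl⟩ : ∃ t, q = t + 1 := ⟨q - 1, by omega⟩
    have : (t + 1) ^ 2 = t * (t + 1 + 1) + 1 := by ring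
    rw [this]; simp
  have hpos2 : 0 < (q - 1) * (q + 1) := Nat.mul_pos (by omega) (by omega)
  apply Nat.le_of_mul_le_mul_right _ hpos2
  rw [← e, hN, e]
  calc (q ^ (k + 1) + 1) * (q ^ k - 1) ≤ (q ^ (k + 1) + 1) * (q ^ k * (q - 1)) := by
        apply Nat.mul_le_mul le_rfl
        calc q ^ k - 1 ≤ q ^ k * 1 := by omega
          _ ≤ q ^ k * (q - 1) := Nat.mul_le_mul le_rfl (by omega)
    _ = (q ^ k * (q ^ (k + 1) + 1)) * (q - 1) := by ring
    _ = I * ((q - 1) * (q + 1)) := by rw [← h1]; ring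

/-- [oS1d] -/
theorem index_stab_nondeg (hF : Fintype.card F = q ^ 2) (hn : 5 ≤ n) (ho : Odd n)
    (W : Submodule F (Fin n → F)) (hW0 : W ≠ ⊥) (hW1 : W ≠ ⊤) (hW : Nondeg q W)
    (K : Subgroup (Cfsg.SU n F q)) (hK : ∀ k ∈ K, ∀ x ∈ W, k.1.1 *ᵥ x ∈ W) :
    NO q n ≤ K.index ∧
      (3 ≤ Module.finrank F W → Module.finrank F W + 3 ≤ n → n * NO q n ≤ K.index) := by
  have hq := two_le_of_card_sq hF
  have hle := index_St_le W K hK
  have h1 := index_St_mul hF (by omega) W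
  rw [card_su_stab_nondeg_mul hF W hW0 hW] at h1
  set j := finrank F W with hj
  have hjpos : 0 < j := by
    rw [hj, Module.finrank_pos_iff, Submodule.nontrivial_iff_ne_bot]
    exact hW0
  have hjlt : j < n := by
    have := Submodule.finrank_lt hW1
    rwa [Module.finrank_fintype_fun_eq_card, Fintype.card_fin] at this
  obtain ⟨l, hl⟩ : ∃ l, n = j + l := ⟨n - j, by omega⟩
  have hnl : n - j = l := by omega
  rw [hnl] at h1
  have hb := s1d_arith q j l _ _ _ _ (by omega) h1 (by rw [← hl]; exact (card_GU_bounds hF n).1)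
    (card_GU_bounds hF j).2 (card_GU_bounds hF l).2
  have hNsq := s1d_NO_sq (q := q) (n := n) hq (by omega) ho
  have hpos : 0 < (q + 1) ^ 2 := by positivity
  generalize (St q W).index = I at h1 hb hle
  constructor
  · refine le_trans ?_ hle
    by_cases hj1 : j = 1
    · have hl' : n = l + 1 := by omega
      have hev : Even l := by
        rcases ho with ⟨t, ht⟩
        exact ⟨t, by omega⟩
      rw [hj1] at h1
      rw [hl'] at h1 ⊢
      exact s1d_exact hF l _ hev (by omega) h1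
    · by_cases hl1 : l = 1
      · have hl' : n = j + 1 := by omega
        have hev : Even j := by
          rcases ho with ⟨t, ht⟩
          exact ⟨t, by omega⟩
        rw [hl1, mul_comm (Nat.card (Cfsg.GU j F q))] at h1
        rw [hl'] at h1 ⊢
        exact s1d_exact hF j _ hev (by omega) h1
      · apply Nat.le_of_mul_le_mul_right _ hpos
        refine hNsq.trans (le_trans ?_ hb)
        apply Nat.pow_le_pow_right (by omega)
        have : 2 * (j + l) ≤ j * l + 4 := s1d_aux0 j l (by omega) (by omega)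
        omega
  · intro h3 h3'
    refine le_trans ?_ hle
    apply Nat.le_of_mul_le_mul_right _ hpos
    refine le_trans ?_ hb
    have hn7 : 7 ≤ n := by
      rcases ho with ⟨t, ht⟩
      omega
    have hnq : n ≤ q ^ (n - 4) := by
      obtain ⟨m', rfl⟩ : ∃ m', n = m' + 7 := ⟨n - 7, by omega⟩
      have := s1d_n_le_o q m' hq
      have e : m' + 7 - 4 = m' + 3 := by omega
      rw [e]; exact this
    calc n * NO q n * (q + 1) ^ 2 = n * (NO q n * (q + 1) ^ 2) := by ring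
      _ ≤ q ^ (n - 4) * q ^ (2 * n + 1) := Nat.mul_le_mul hnq hNsq
      _ = q ^ (n - 4 + (2 * n + 1)) := by rw [← pow_add]
      _ ≤ q ^ (2 * (j * l) + 2) := by
          apply Nat.pow_le_pow_right (by omega)
          have : 3 * (j + l) ≤ j * l + 9 := s1d_aux2 j l h3 (by omega)
          omega

end Cfsg.Agent.Lib.Helper37.MinSU.O
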